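import Cfsg.Agent.H921.RIM.Kill4A
import Cfsg.Agent.H586.NX.Tools
import Cfsg.Agent.H586.NX.NotNine
import Cfsg.Agent.H610.NX.XCentral

/-!
# S4816, `q = p = 3`, box K4 (helper921)

`kill4 : AS r 4 3 X B → False`.

Elements `x` of order 3 have `|C_U(x)| ∈ {16, 4}` (`no_one`, `fixd`), so that `9 ∤ |Y|` (`sylow_small`) and the simple group
`Y / X` has order `60`, `168` or `4080`. The counting inequality `cnt` gives `411 ≤ N` (`923 ≤ N`) where `N` is the number of
Sylow `3`-subgroups, `N * 6 ≤ |Y / X|`; so `|Y / X| = 4080`, `411 ≤ N ≤ 680`, `N ∣ 4080` and `N ≡ 1` mod `3`, impossible.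
-/

set_option autoImplicit false

namespace Cfsg.Agent.H921.RIM

open Cfsg.Agent.H586.NX Cfsg.Agent.H20.RIM

variable {r : ℕ} {Y U : Type*} [Group Y] [Finite Y] [AddCommGroup U] [Finite U] [DistribMulAction Y U]
  {X : Subgroup Y} {B : U → U → ZMod 2}

/-- the number of fixed vectors of an element of order 3 -/
theorem fix_two_or_three (A : AS (U := U) r 4 3 X B) {x : Y} (hx : orderOf x = 3) :
    Nat.card {u : U // x • u = u} = 2 ^ (2 * (4 - 2)) ∨ Nat.card {u : U // x • u = u} = 2 ^ (2 * (4 - 3)) := by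
  have : Fact (Nat.Prime 3) := ⟨Nat.prime_three⟩
  obtain ⟨j, h1, h4, hc, -, -⟩ := exists_fix A.S hx
  have hj1 : j ≠ 1 := by
    rintro rfl
    exact no_one A hx (by rw [hc]; norm_num)
  have hj4 : j ≠ 4 := by
    rintro rfl
    have hz : IsPGroup 3 (Subgroup.zpowers x) :=
      IsPGroup.of_card (n := 1) (by rw [Nat.card_zpowers, hx, pow_one])
    obtain ⟨P, hP⟩ := hz.exists_le_sylow
    obtain ⟨u, hu0, hu⟩ := A.fixd (Or.inr le_rfl) P
    have hxu : x • u = u := hu x (hP (Subgroup.mem_zpowers x))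
    have h5 : Nat.card {u : U // x • u = u} = 1 := by rw [hc]; norm_num
    have h6 := (Nat.card_eq_one_iff_unique.1 h5).1
    have h7 : (⟨u, hxu⟩ : {u : U // x • u = u}) = ⟨0, smul_zero x⟩ := Subsingleton.elim _ _
    exact hu0 (congrArg Subtype.val h7)
  have h23 : j = 2 ∨ j = 3 := by omega
  rcases h23 with rfl | rfl
  · exact Or.inl hc
  · exact Or.inr hc

theorem not_nine (A : AS (U := U) r 4 3 X B) : ¬ 9 ∣ Nat.card Y := by
  refine sylow_small A fun x hx => ?_
  rcases fix_two_or_three A hx with h | h <;> rw [h] <;> norm_num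

/-- the order of the simple quotient -/
theorem card_quot (A : AS (U := U) r 4 3 X B) :
    Nat.card (Y ⧸ X) = 60 ∨ Nat.card (Y ⧸ X) = 168 ∨ Nat.card (Y ⧸ X) = 4080 := by
  have := A.nX
  have := A.simp
  have hYd : Nat.card Y ∣ 2 ^ 16 * 3 ^ 5 * 5 ^ 2 * 7 * 17 := by
    have h1 := Cfsg.Agent.H610.NX.card_dvd A.S
    simp only [Finset.prod_range_succ, Finset.prod_range_zero] at h1
    norm_num at h1 ⊢
    exact h1
  have hqd : Nat.card (Y ⧸ X) ∣ 2 ^ 16 * 3 ^ 5 * 5 ^ 2 * 7 * 17 := (Subgroup.card_quotient_dvd_card X).trans hYd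
  have h9 : ¬ 9 ∣ Nat.card (Y ⧸ X) := fun h => not_nine A (h.trans (Subgroup.card_quotient_dvd_card X))
  have hbig : Nat.card (Y ⧸ X) ∣ 2 ^ 25 * 3 ^ 6 * 5 ^ 2 * 7 * 11 * 17 * 31 :=
    hqd.trans ⟨2 ^ 9 * 3 * 11 * 31, by norm_num⟩
  rcases card_of_not_nine A.na A.pS h9 hbig with h | h | h | h | h | h
  · exact Or.inl h
  · exact Or.inr (Or.inl h)
  · rw [h] at hqd
    norm_num at hqd
  · exact Or.inr (Or.inr h)
  · rw [h] at hqd
    norm_num at hqd
  · rw [h] at hqd
    norm_num at hqd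

/-- the number of Sylow 3-subgroups is 1 mod 3 -/
theorem index_mod (h9 : ¬ 9 ∣ Nat.card Y) {x : Y} (hx : orderOf x = 3) :
    (Subgroup.normalizer ((Subgroup.zpowers x : Subgroup Y) : Set Y)).index % 3 = 1 := by
  have hf : Fact (Nat.Prime 3) := ⟨Nat.prime_three⟩
  have hcz : Nat.card (Subgroup.zpowers x) = 3 := by rw [Nat.card_zpowers, hx]
  have hP : IsPGroup 3 (Subgroup.zpowers x) := IsPGroup.of_card (n := 1) (by rw [hcz, pow_one])
  have hi : ¬ 3 ∣ (Subgroup.zpowers x).index := by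
    intro h
    apply h9
    have h1 := (Subgroup.zpowers x).card_mul_index
    rw [hcz] at h1
    rw [← h1]
    exact Nat.mul_dvd_mul_left 3 h
  let P : Sylow 3 Y := hP.toSylow hi
  have hPc : (P : Subgroup Y) = Subgroup.zpowers x := rfl
  have h1 := P.card_eq_index_normalizer
  have h2 := card_sylow_modEq_one 3 Y
  rw [h1] at h2
  have h3 : (Subgroup.normalizer ((P : Subgroup Y) : Set Y)).index % 3 = 1 := h2
  rw [hPc] at h3
  exact h3

/-- **K4** -/
theorem kill4 (A : AS (U := U) r 4 3 X B) : False := by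
  have hf : Fact (Nat.Prime 3) := ⟨Nat.prime_three⟩
  have := A.nX
  have hX : X ≤ Subgroup.center Y := Cfsg.Agent.H610.NX.X_central A.S (by norm_num)
  have h9 := not_nine A
  obtain ⟨x, hx⟩ := exists_prime_orderOf_dvd_card' (G := Y) 3 A.S.pY
  have h6 := index_six hX A.S.perf hx A.S.pX h9
  have hmod := index_mod h9 hx
  have hdvd : (Subgroup.normalizer ((Subgroup.zpowers x : Subgroup Y) : Set Y)).index ∣ Nat.card (Y ⧸ X) := by
    rw [← Subgroup.index_eq_card]
    apply Subgroup.index_dvd_of_le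
    intro c hc
    exact centralizer_le_normalizer_zpowers x (by
      rw [Subgroup.mem_centralizer_singleton_iff]
      exact (Subgroup.mem_center_iff.1 (hX hc) x).symm)
  have hlow : 411 ≤ (Subgroup.normalizer ((Subgroup.zpowers x : Subgroup Y) : Set Y)).index := by
    rcases fix_two_or_three A hx with h | h
    · obtain ⟨k, hk, hle⟩ := A.cnt x hx 2 (by norm_num) h
      have hk2 : k ≤ 2 := by omega
      have h1 : 3 ^ (2 ^ (4 - 2) * k) ≤ 3 ^ 8 := Nat.pow_le_pow_right (by norm_num) (by omega)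
      have h2 := hle.trans (Nat.mul_le_mul_left _ h1)
      norm_num at h2
      omega
    · obtain ⟨k, hk, hle⟩ := A.cnt x hx 3 (by norm_num) h
      have hk2 : k ≤ 3 := by omega
      have h1 : 3 ^ (2 ^ (4 - 3) * k) ≤ 3 ^ 6 := Nat.pow_le_pow_right (by norm_num) (by omega)
      have h2 := hle.trans (Nat.mul_le_mul_left _ h1)
      norm_num at h2
      omega
  generalize (Subgroup.normalizer ((Subgroup.zpowers x : Subgroup Y) : Set Y)).index = N at *
  rcases card_quot A with h | h | h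
  · omega
  · omega
  · rw [h] at h6 hdvd
    have hN : N ≤ 680 := by omega
    have hkey : ∀ m < 681, 411 ≤ m → m % 3 = 1 → ¬ m ∣ 4080 := by decide +kernel
    exact hkey N (by omega) hlow hmod hdvd

end Cfsg.Agent.H921.RIM
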